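import Mathlib
import Cfsg.Agent.Lib.Coprime.GlauberCyclic
import Cfsg.Agent.Lib.CharExtra.RatBound
import Cfsg.Agent.Lib.CharExtra.OddExt
import Cfsg.Agent.Lib.Char.Clifford
import Cfsg.Agent.Lib.Degree.Cod
import Cfsg.Agent.Lib.PSolv.Basic
import Cfsg.Agent.Lib.PGroup.AxLemma
import Cfsg.Agent.Lib.Hall.SZConj

/-!
# Rational characters of a `p`-group acting coprimely
-/

set_option autoImplicit false
set_option linter.unusedSectionVars false
set_option linter.unusedVariables false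

open Cfsg Cfsg.Agent.Lib.Char Cfsg.Agent.Lib.Coprime
open Cfsg.Agent.Lib.Degree (kerOf mem_kerOf_iff kerOf_normal)

namespace Cfsg.Agent.Lib.RatExt

universe u

section Tri

variable {G : Type u} [Group G] [Finite G]

/-- A complex number with norm at most `d` and real part at least `d` equals `d`. -/
theorem eq_of_norm_le_of_re_ge {z : ℂ} {d : ℝ} (h1 : ‖z‖ ≤ d) (h2 : d ≤ z.re) : z = d := by
  have h0 : 0 ≤ d := (norm_nonneg z).trans h1
  have h3 : z.re ≤ ‖z‖ := Complex.re_le_norm z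
  have h4 : z.re = d := le_antisymm (h3.trans h1) h2
  have h5 : ‖z‖ ^ 2 = z.re ^ 2 + z.im ^ 2 := by
    rw [Complex.sq_norm, Complex.normSq_apply]; ring
  have h6 : ‖z‖ ^ 2 ≤ d ^ 2 := by
    have := norm_nonneg z
    nlinarith
  have h7 : z.im = 0 := by
    rw [h4] at h5
    nlinarith [sq_nonneg z.im]
  apply Complex.ext
  · simpa using h4
  · simpa using h7

/-- Sums of numbers of norm at most `d`. -/
theorem forall_eq_of_sum_eq {ι : Type*} [Fintype ι] (z : ι → ℂ) (d : ℝ) (h1 : ∀ i, ‖z i‖ ≤ d)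
    (h2 : ∑ i, z i = (Fintype.card ι : ℂ) * d) (i : ι) : z i = d := by
  have h3 : ∑ i, (z i).re = ∑ _i : ι, d := by
    have := congrArg Complex.re h2
    rw [Complex.re_sum] at this
    rw [this]
    simp
  have h4 : ∀ i ∈ Finset.univ, (z i).re ≤ d := fun i _ => (Complex.re_le_norm _).trans (h1 i)
  have h5 := (Finset.sum_eq_sum_iff_of_le h4).mp h3 i (Finset.mem_univ i)
  exact eq_of_norm_le_of_re_ge (h1 i) h5.ge

/-- If an induced character takes its degree at `y`, every conjugate of `y` lies in the subgroup and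
the character there takes its degree. -/
theorem indFun_eq_one_val [Fintype G] (E : Subgroup G) {φ : E → ℂ} (hφ : IsCharacter E φ) (h0 : φ 1 ≠ 0) (y : G)
    (h : indFun E φ y = indFun E φ 1) (x : G) : ∃ h : x⁻¹ * y * x ∈ E, φ ⟨_, h⟩ = φ 1 := by
  classical
  obtain ⟨d, hd⟩ := IsCharacter.map_one_eq hφ
  have hd' : (φ 1).re = d := by rw [hd]; simp
  have hE0 : ((Nat.card E : ℕ) : ℂ) ≠ 0 := by
    exact_mod_cast (Nat.card_pos (α := E)).ne'
  have hb : ∀ g : G, ‖extendByZero E φ g‖ ≤ (d : ℝ) := by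
    intro g
    by_cases hg : g ∈ E
    · rw [extendByZero_of_mem E φ hg, ← hd']
      exact IsCharacter.norm_le' hφ _
    · rw [extendByZero_of_not_mem E φ hg]
      simp
  rw [indFun_one, indFun_apply] at h
  have hcard : (Nat.card G : ℂ) = Nat.card E * E.index := by
    have := E.card_mul_index
    exact_mod_cast this.symm
  have hsum : ∑ x : G, extendByZero E φ (x⁻¹ * y * x) = (Fintype.card G : ℂ) * ((d : ℝ) : ℂ) := by
    have h1 : ∑ x : G, extendByZero E φ (x⁻¹ * y * x) = (Nat.card E : ℂ) * (E.index * φ 1) := by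
      rw [← h]
      field_simp
    rw [h1, hd, Fintype.card_eq_nat_card, hcard]
    push_cast
    ring
  have hx : extendByZero E φ (x⁻¹ * y * x) = ((d : ℝ) : ℂ) :=
    forall_eq_of_sum_eq (fun x : G => extendByZero E φ (x⁻¹ * y * x)) d (fun x => hb _) hsum x
  have hmem : x⁻¹ * y * x ∈ E := by
    by_contra hn
    rw [extendByZero_of_not_mem E φ hn] at hx
    apply h0
    rw [hd]
    have : ((d : ℝ) : ℂ) = (d : ℂ) := by push_cast; rfl
    rw [← this, ← hx]
  refine ⟨hmem, ?_⟩
  rw [extendByZero_of_mem E φ hmem] at hx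
  rw [hx, hd]
  push_cast
  rfl

end Tri

section Irr

variable {H : Type u} [Group H] [Fintype H] {p : ℕ} [hpF : Fact p.Prime] (Q R : Subgroup H)

/-- The main construction for an irreducible character. -/
theorem rat_irr [hQ : Q.Normal] (hR : IsPGroup p R) (hQp : (Nat.card Q).Coprime p) (htop : Q ⊔ R = ⊤)
    {ψ : H → ℂ} (hψ : IsIrrCharacter H ψ) :
    ∃ ξ : R → ℂ, IsCharacter R ξ ∧ charDegree ξ ≤ charDegree ψ ∧
      (∀ u : ℕ, u.Coprime (Nat.card R) → ∀ g, ξ (g ^ u) = ξ g) ∧
      ∀ y : R, ξ y = ξ 1 → ∀ q ∈ Q, ψ ((y : H) * q * (y : H)⁻¹ * q⁻¹) = ψ 1 := by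
  classical
  have hψc := IsIrrCharacter.isCharacter hψ
  have hres := IsCharacter.restrict Q hψc
  have hne : (fun n : Q => ψ n) ≠ 0 := by
    intro h
    have h1 := congrFun h 1
    simp only [OneMemClass.coe_one, Pi.zero_apply] at h1
    exact map_one_ne_zero_of_irr hψ h1
  obtain ⟨θ, hθ, hcon⟩ := exists_constituent hres hne
  have hθc := IsIrrCharacter.isCharacter hθ
  set T : Subgroup H := inertia hQ θ with hT
  have hQT : Q ≤ T := le_inertia hQ (IsCharacter.isClassFunction hθc)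
  have hinvT : ∀ t ∈ T, ∀ n : Q, θ ⟨t * n * t⁻¹, hQ.conj_mem n n.2 t⟩ = θ n := by
    intro t ht n
    exact congrFun ((mem_inertia hQ θ t).mp ht) n
  -- decomposition
  have hdec : ∀ g : H, ∃ q ∈ Q, ∃ r ∈ R, g = q * r := by
    intro g
    have h1 : g ∈ ((Q ⊔ R : Subgroup H) : Set H) := by rw [htop]; trivial
    rw [Subgroup.normal_mul] at h1
    obtain ⟨q, hq, r, hr, rfl⟩ := Set.mem_mul.mp h1
    exact ⟨q, hq, r, hr, rfl⟩
  haveI : Fintype T := Fintype.ofFinite T
  let G' : Subgroup T := Q.subgroupOf T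
  let S' : Subgroup T := R.subgroupOf T
  haveI hG'n : G'.Normal := Subgroup.normal_subgroupOf
  have htop' : G' ⊔ S' = ⊤ := by
    rw [eq_top_iff]
    rintro t -
    obtain ⟨q, hq, r, hr, htq⟩ := hdec (t : H)
    have hqT : q ∈ T := hQT hq
    have hrT : r ∈ T := by
      have h1 : r = q⁻¹ * (t : H) := by rw [htq]; group
      rw [h1]
      exact T.mul_mem (T.inv_mem hqT) t.2
    have h2 : t = (⟨q, hqT⟩ : T) * ⟨r, hrT⟩ := Subtype.ext htq
    rw [h2]
    exact Subgroup.mul_mem_sup (show (⟨q, hqT⟩ : T) ∈ G' from hq) (show (⟨r, hrT⟩ : T) ∈ S' from hr)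
  have hRcard : ∃ n, Nat.card R = p ^ n := IsPGroup.iff_card.mp hR
  have hG'card : Nat.card G' ∣ Nat.card Q := by
    rw [Nat.card_congr (Subgroup.subgroupOfEquivOfLe hQT).toEquiv]
  let incS : S' →* R :=
    { toFun := fun s => ⟨s.1.1, s.2⟩
      map_one' := rfl
      map_mul' := fun _ _ => rfl }
  have hincS : Function.Injective incS := by
    intro a b hab
    have h1 : ((incS a : R) : H) = ((incS b : R) : H) := congrArg _ hab
    exact Subtype.ext (Subtype.ext h1)
  have hS'card : Nat.card S' ∣ Nat.card R := Subgroup.card_dvd_of_injective incS hincS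
  have hQR : (Nat.card Q).Coprime (Nat.card R) := by
    obtain ⟨n, hn⟩ := hRcard
    rw [hn]
    exact Nat.Coprime.pow_right n hQp
  have hcop : (Nat.card G').Coprime (Nat.card S') :=
    Nat.Coprime.coprime_dvd_left hG'card (Nat.Coprime.coprime_dvd_right hS'card hQR)
  let e : G' ≃* Q := Subgroup.subgroupOfEquivOfLe hQT
  let θ' : G' → ℂ := θ ∘ e
  have hθ' : IsIrrCharacter G' θ' := isIrr_comp_equiv e hθ
  have hinv' : ∀ (g : T) (n : G'), θ' ⟨g * n * g⁻¹, hG'n.conj_mem (n : T) n.2 g⟩ = θ' n := by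
    intro g n
    exact hinvT g g.2 (e n)
  have hd : θ' 1 = (charDegree θ : ℕ) := by
    show θ (e 1) = _
    rw [map_one]
    exact map_one_eq_charDegree hθc
  obtain ⟨X, ⟨hX, hext, hdetX⟩, -⟩ := Cfsg.Agent.S0867.result G' θ' hθ' hinv' (charDegree θ) hd
    (index_coprime_data hcop htop' hθ' hd)
  have hXc := IsIrrCharacter.isCharacter hX
  have hG : IsIrrCharacter G' (fun g : G' => X g) := by
    have : (fun g : G' => X g) = θ' := funext hext
    rw [this]
    exact hθ'
  have hdet : (detOrder X).Coprime (Nat.card S') := by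
    rw [hdetX]
    exact Nat.Coprime.coprime_dvd_left (detOrder_dvd_card (IsIrrCharacter.isCharacter hθ')) hcop
  have hpow : ∀ a ∈ S', ∀ u : ℕ, u.Coprime (Nat.card S') → X (a ^ u) = X a := by
    intro a ha u hu
    have := canonical_pow hcop htop' hX hG hdet (c := 1) G'.one_mem ha (Commute.one_left a) u hu
    simpa using this
  let E : Subgroup R := T.subgroupOf R
  let f : E →* T :=
    { toFun := fun s => ⟨s.1.1, s.2⟩
      map_one' := rfl
      map_mul' := fun _ _ => rfl }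
  let φ : E → ℂ := X ∘ f
  have hφ : IsCharacter E φ := IsCharacter.comp f hXc
  have hφ1 : φ 1 = (charDegree θ : ℕ) := by
    show X (f 1) = _
    rw [map_one]
    have := hext 1
    rw [hd] at this
    simpa using this
  have hdeg0 : (charDegree θ : ℂ) ≠ 0 := by
    exact_mod_cast (charDegree_pos_of_irr hθ).ne'
  refine ⟨indFun E φ, indFun_isCharacter E hφ, ?_, ?_, ?_⟩
  · -- degree
    have h1 : indFun E φ 1 = ((E.index * charDegree θ : ℕ) : ℂ) := by
      rw [indFun_one, hφ1]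
      push_cast
      rfl
    rw [charDegree_natCast h1]
    obtain ⟨c, hc⟩ := classInner_isCharacter_nat hres hθc
    have hc0 : c ≠ 0 := by
      rintro rfl
      exact hcon (by rw [hc]; simp)
    rw [clifford_degree hQ hψ hθ hc hc0]
    have h2 : E.index ≤ T.index := by
      have := Subgroup.relIndex_le_of_le_right (H := T) (K := R) (L := ⊤) le_top
        (by rw [Subgroup.relIndex_top_right]; exact Subgroup.index_ne_zero_of_finite)
      rwa [Subgroup.relIndex_top_right] at this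
    have h3 : 1 ≤ c := Nat.pos_of_ne_zero hc0
    calc E.index * charDegree θ ≤ T.index * charDegree θ := Nat.mul_le_mul_right _ h2
      _ ≤ c * T.index * charDegree θ := by
        rw [mul_assoc]
        exact Nat.le_mul_of_pos_left _ h3
  · -- rationality
    intro u hu g
    rw [Cfsg.Agent.Lib.CharExtra.indFun_pow E φ hu g]
    congr 1
    funext s
    show X (f (s ^ u)) = X (f s)
    rw [map_pow]
    refine hpow _ s.1.2 u ?_
    exact Nat.Coprime.coprime_dvd_right hS'card hu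
  · -- kernel
    intro y hy q hq
    have hyq : ∀ r : H, ∀ q' ∈ Q, r * q' * r⁻¹ ∈ Q := fun r q' hq' => hQ.conj_mem q' hq' r
    have hw : (y : H) * q * (y : H)⁻¹ * q⁻¹ ∈ Q := Q.mul_mem (hyq _ q hq) (Q.inv_mem hq)
    let w : Q := ⟨_, hw⟩
    have hCl := clifford_restrict hQ hψ hθ hcon
    have h1 := congrFun hCl w
    have h2 := congrFun hCl 1
    simp only [Pi.smul_apply, Finset.sum_apply, smul_eq_mul, OneMemClass.coe_one] at h1 h2
    have h3 : ψ ((y : H) * q * (y : H)⁻¹ * q⁻¹) = _ := h1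
    rw [h3, h2]
    congr 1
    refine Finset.sum_congr rfl fun ρ hρ => ?_
    obtain ⟨g, hg⟩ := (mem_cliffordOrbit hQ θ ρ).mp hρ
    rw [hg]
    obtain ⟨q₁, hq₁, r₁, hr₁, rfl⟩ := hdec g
    -- reduce
    have hgen : ∀ n : Q, conjFn hQ (q₁ * r₁) θ n = θ ⟨r₁ * n * r₁⁻¹, hQ.conj_mem n n.2 r₁⟩ := by
      intro n
      have := hinvT q₁ (hQT hq₁) ⟨r₁ * n * r₁⁻¹, hQ.conj_mem n n.2 r₁⟩
      rw [← this]
      show θ _ = θ _
      congr 1
      apply Subtype.ext
      show q₁ * r₁ * n * (q₁ * r₁)⁻¹ = q₁ * (r₁ * n * r₁⁻¹) * q₁⁻¹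
      group
    rw [hgen, hgen]
    have hone : θ ⟨r₁ * ((1 : Q) : H) * r₁⁻¹, hQ.conj_mem _ (1 : Q).2 r₁⟩ = θ 1 := by
      congr 1
      apply Subtype.ext
      simp
    rw [hone]
    -- the kernel
    let x : R := ⟨r₁⁻¹, R.inv_mem hr₁⟩
    obtain ⟨hmemE, hval⟩ := indFun_eq_one_val E hφ (by rw [hφ1]; exact hdeg0) y hy x
    let z : T := f ⟨_, hmemE⟩
    have hzker : z ∈ kerOf X := (mem_kerOf_iff hXc).mpr (by
      have h4 : X z = φ 1 := hval
      rw [h4, hφ1, ← hd, ← hext 1]
      rfl)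
    haveI hkn : (kerOf X).Normal := kerOf_normal (IsCharacter.isClassFunction hXc)
    have hq'T : r₁ * q * r₁⁻¹ ∈ T := hQT (hyq _ q hq)
    let q'' : T := ⟨_, hq'T⟩
    have hcker : z * (q'' * z⁻¹ * q''⁻¹) ∈ kerOf X :=
      (kerOf X).mul_mem hzker (hkn.conj_mem _ ((kerOf X).inv_mem hzker) q'')
    have hval2 := (mem_kerOf_iff hXc).mp hcker
    have hzcoe : ((z : T) : H) = r₁ * y * r₁⁻¹ := by
      show r₁⁻¹⁻¹ * y * r₁⁻¹ = _
      rw [inv_inv]
    have hGmem : z * (q'' * z⁻¹ * q''⁻¹) ∈ G' := by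
      show ((z * (q'' * z⁻¹ * q''⁻¹) : T) : H) ∈ Q
      have h5 : ((z * (q'' * z⁻¹ * q''⁻¹) : T) : H) = r₁ * ((y : H) * q * (y : H)⁻¹ * q⁻¹) * r₁⁻¹ := by
        show ((z : T) : H) * (r₁ * q * r₁⁻¹ * ((z : T) : H)⁻¹ * (r₁ * q * r₁⁻¹)⁻¹) = _
        rw [hzcoe]
        group
      rw [h5]
      exact hyq _ _ hw
    have h6 := hext ⟨_, hGmem⟩
    have h7 : X (z * (q'' * z⁻¹ * q''⁻¹)) = θ' ⟨_, hGmem⟩ := h6
    rw [hval2] at h7
    have h8 : θ' ⟨_, hGmem⟩ = θ ⟨r₁ * (w : H) * r₁⁻¹, hQ.conj_mem _ w.2 r₁⟩ := by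
      show θ (e _) = _
      congr 1
      apply Subtype.ext
      show ((z : T) : H) * (r₁ * q * r₁⁻¹ * ((z : T) : H)⁻¹ * (r₁ * q * r₁⁻¹)⁻¹) = r₁ * ((y : H) * q * (y : H)⁻¹ * q⁻¹) * r₁⁻¹
      rw [hzcoe]
      group
    rw [← h8, ← h7]
    have h9 := hext 1
    rw [hd] at h9
    have h10 : θ 1 = (charDegree θ : ℕ) := map_one_eq_charDegree hθc
    rw [h10]
    simpa using h9

/-- The construction for all characters. -/
theorem rat_all [hQ : Q.Normal] (hR : IsPGroup p R) (hQp : (Nat.card Q).Coprime p) (htop : Q ⊔ R = ⊤) :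
    ∀ (m : ℕ) (χ : H → ℂ), IsCharacter H χ → charDegree χ = m →
    ∃ ξ : R → ℂ, IsCharacter R ξ ∧ charDegree ξ ≤ m ∧
      (∀ u : ℕ, u.Coprime (Nat.card R) → ∀ g, ξ (g ^ u) = ξ g) ∧
      ∀ y : R, ξ y = ξ 1 → ∀ q ∈ Q, χ ((y : H) * q * (y : H)⁻¹ * q⁻¹) = χ 1 := by
  classical
  intro m
  induction m using Nat.strong_induction_on with
  | _ m ih =>
    intro χ hχ hm
    by_cases h0 : χ = 0
    · subst h0
      refine ⟨0, Cfsg.Agent.Lib.CharExtra.isCharacter_zero_fun, ?_, ?_, ?_⟩
      · simp [charDegree]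
      · intro u hu g
        rfl
      · intro y hy q hq
        rfl
    · obtain ⟨τ, hτ, hc⟩ := exists_constituent hχ h0
      have hsub := isCharacter_sub_of_constituent hχ hτ hc
      have hτc := IsIrrCharacter.isCharacter hτ
      obtain ⟨ξ₁, hξ₁, hd₁, hr₁, hk₁⟩ := rat_irr Q R hR hQp htop hτ
      have hdτ := map_one_eq_charDegree hτc
      have hdχ := map_one_eq_charDegree hχ
      have hdsub := map_one_eq_charDegree hsub
      have hdsum : charDegree τ + charDegree (χ - τ) = charDegree χ := by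
        have h1 : (χ - τ) 1 = χ 1 - τ 1 := rfl
        rw [h1, hdχ, hdτ] at hdsub
        have h2 : ((charDegree τ + charDegree (χ - τ) : ℕ) : ℂ) = (charDegree χ : ℂ) := by
          push_cast
          rw [← hdsub]
          ring
        exact_mod_cast h2
      have hpos := charDegree_pos_of_irr hτ
      obtain ⟨ξ₂, hξ₂, hd₂, hr₂, hk₂⟩ := ih (charDegree (χ - τ)) (by omega) (χ - τ) hsub rfl
      have hdξ₁ := map_one_eq_charDegree hξ₁
      have hdξ₂ := map_one_eq_charDegree hξ₂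
      refine ⟨ξ₁ + ξ₂, IsCharacter.add hξ₁ hξ₂, ?_, ?_, ?_⟩
      · have h1 : (ξ₁ + ξ₂) 1 = ((charDegree ξ₁ + charDegree ξ₂ : ℕ) : ℂ) := by
          show ξ₁ 1 + ξ₂ 1 = _
          rw [hdξ₁, hdξ₂]
          push_cast
          rfl
        rw [charDegree_natCast h1]
        omega
      · intro u hu g
        show ξ₁ _ + ξ₂ _ = ξ₁ _ + ξ₂ _
        rw [hr₁ u hu, hr₂ u hu]
      · intro y hy q hq
        have hy' : ξ₁ y + ξ₂ y = ξ₁ 1 + ξ₂ 1 := hy
        have hb₁ : ‖ξ₁ y‖ ≤ (charDegree ξ₁ : ℝ) := by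
          have := IsCharacter.norm_le' hξ₁ y
          rw [hdξ₁] at this
          simpa using this
        have hb₂ : ‖ξ₂ y‖ ≤ (charDegree ξ₂ : ℝ) := by
          have := IsCharacter.norm_le' hξ₂ y
          rw [hdξ₂] at this
          simpa using this
        have hre : (ξ₁ y).re + (ξ₂ y).re = (charDegree ξ₁ : ℝ) + (charDegree ξ₂ : ℝ) := by
          have := congrArg Complex.re hy'
          rw [hdξ₁, hdξ₂] at this
          simpa using this
        have hre₁ := (Complex.re_le_norm (ξ₁ y)).trans hb₁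
        have hre₂ := (Complex.re_le_norm (ξ₂ y)).trans hb₂
        have e₁ : ξ₁ y = ξ₁ 1 := by
          rw [hdξ₁, eq_of_norm_le_of_re_ge hb₁ (by linarith)]
          simp
        have e₂ : ξ₂ y = ξ₂ 1 := by
          rw [hdξ₂, eq_of_norm_le_of_re_ge hb₂ (by linarith)]
          simp
        have h5 := hk₁ y e₁ q hq
        have h6 := hk₂ y e₂ q hq
        have h7 : χ = τ + (χ - τ) := by
          funext g
          simp
        rw [h7]
        show τ _ + (χ - τ) _ = τ _ + (χ - τ) _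
        rw [h5, h6]

end Irr

section Grp

variable {G : Type u} [Group G] [Finite G] {p : ℕ} [hpF : Fact p.Prime]

open Subgroup Cfsg.Agent.Lib.Core Cfsg.Agent.Lib.Hall
open scoped Pointwise

/-- The group part: a `p'`-subgroup `Q` and a `p`-subgroup `R` normalizing it with `C_R(Q) ≤ O_p(G)` and
the `p`-part of the index of `O_p(G)` realized on `R`. -/
theorem exists_pair (hsolv : Cfsg.Agent.Lib.PSolv.PStep p G) :
    ∃ Q R : Subgroup G, R ≤ normalizer (Q : Set G) ∧ (Nat.card Q).Coprime p ∧ IsPGroup p R ∧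
      R ⊓ centralizer (Q : Set G) ≤ pCore p G ∧
      p ^ ((pCore p G).index.factorization p) ∣ (pCore p G).relIndex R := by
  classical
  set O := pCore p G with hO
  haveI hOn : O.Normal := pCore_normal p G
  have hOp : IsPGroup p O := pCore_isPGroup p G
  let π := QuotientGroup.mk' O
  set Kb : Subgroup (G ⧸ O) := pPrimeCore p (G ⧸ O) with hKb
  haveI hKbn : Kb.Normal := pPrimeCore_normal p _
  let K : Subgroup G := Kb.comap π
  haveI hKn : K.Normal := hKbn.comap π
  have hOK : O ≤ K := by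
    intro x hx
    show π x ∈ Kb
    rw [show π x = 1 from (QuotientGroup.eq_one_iff x).mpr hx]
    exact Kb.one_mem
  have hKbc : (Nat.card Kb).Coprime p := pPrimeCore_coprime p (G ⧸ O)
  have hKcard : Nat.card K = Nat.card O * Nat.card Kb := by
    have h1 : K.index = Kb.index := Subgroup.index_comap_of_surjective _ (QuotientGroup.mk'_surjective O)
    have h2 := K.card_mul_index
    have h3 := Kb.card_mul_index
    have h4 := O.card_mul_index
    rw [Subgroup.index_eq_card, ← h3] at h4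
    have hpos : 0 < Kb.index := Nat.pos_of_ne_zero Subgroup.index_ne_zero_of_finite
    rw [h1, ← h4, ← mul_assoc] at h2
    exact Nat.eq_of_mul_eq_mul_right hpos h2
  let O' : Subgroup K := O.subgroupOf K
  haveI : O'.Normal := Subgroup.normal_subgroupOf
  have hO'card : Nat.card O' = Nat.card O := Nat.card_congr (Subgroup.subgroupOfEquivOfLe hOK).toEquiv
  have hO'idx : O'.index = Nat.card Kb := by
    have h1 := O'.card_mul_index
    rw [hO'card, hKcard] at h1
    exact Nat.eq_of_mul_eq_mul_left Nat.card_pos h1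
  obtain ⟨a₀, ha₀⟩ := IsPGroup.iff_card.mp hOp
  have hcop : (Nat.card O').Coprime O'.index := by
    rw [hO'card, hO'idx, ha₀]
    exact (Nat.Coprime.pow_right a₀ hKbc).symm
  obtain ⟨Q', hQ'⟩ := Subgroup.exists_right_complement'_of_coprime hcop
  let Q : Subgroup G := Q'.map K.subtype
  have hQK : Q ≤ K := Subgroup.map_subtype_le Q'
  have hQcard : Nat.card Q = Nat.card Kb := by
    have h1 : Nat.card Q = Nat.card Q' :=
      Nat.card_congr (Subgroup.equivMapOfInjective Q' K.subtype K.subtype_injective).toEquiv.symm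
    rw [h1, ← hO'idx]
    exact hQ'.symm.index_eq_card.symm
  have hOQ1 : O ⊓ Q = ⊥ := by
    rw [eq_bot_iff]
    rintro x ⟨hx1, k, hk, rfl⟩
    have h1 : k ∈ O' := hx1
    have h2 := Subgroup.disjoint_def.mp hQ'.disjoint h1 hk
    rw [h2]
    exact Subgroup.one_mem _
  have hOQ2 : O ⊔ Q = K := by
    refine le_antisymm (sup_le hOK hQK) ?_
    intro x hx
    obtain ⟨⟨a, b⟩, hab⟩ := hQ'.2 (⟨x, hx⟩ : K)
    have h1 : (a : K) * (b : K) = ⟨x, hx⟩ := hab
    have h2 : ((a : K) : G) * ((b : K) : G) = x := congrArg Subtype.val h1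
    rw [← h2]
    exact Subgroup.mul_mem_sup a.2 ⟨(b : K), b.2, rfl⟩
  have hOsolv : Group.IsSolvable O := by
    haveI := hOp.isNilpotent
    infer_instance
  have hAn : K ≤ normalizer (O : Set G) := by
    rw [Subgroup.normalizer_eq_top_iff.mpr hOn]
    exact le_top
  have hfrat : ∀ g : G, ∃ a ∈ O, a⁻¹ * g ∈ normalizer (Q : Set G) := by
    intro g
    have h1 : O ⊓ (MulAut.conj g • Q) = ⊥ := by
      rw [eq_bot_iff]
      rintro x ⟨hx1, hx2⟩
      have hx2' : x ∈ MulAut.conj g • Q := hx2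
      rw [mem_conj_smul_iff] at hx2'
      have h3 : g⁻¹ * x * g ∈ O := by
        have := hOn.conj_mem x hx1 g⁻¹
        simpa using this
      have h4 : g⁻¹ * x * g ∈ O ⊓ Q := ⟨h3, hx2'⟩
      rw [hOQ1, Subgroup.mem_bot] at h4
      have h5 : x = g * (g⁻¹ * x * g) * g⁻¹ := by group
      rw [h5, h4]
      simp
    have h2 : O ⊔ (MulAut.conj g • Q) = K := by
      have h3 : MulAut.conj g • (O ⊔ Q) = K := by
        rw [hOQ2]
        exact conj_smul_eq_self_of_normal g K
      rw [← h3, conj_smul_eq_map g (O ⊔ Q), Subgroup.map_sup, ← conj_smul_eq_map, ← conj_smul_eq_map,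
        conj_smul_eq_self_of_normal g O]
    obtain ⟨a, ha, hconj⟩ := Cfsg.Agent.Lib.Hall.exists_conj_rel O K Q (MulAut.conj g • Q) hOK hAn hOsolv
      (by
        have : O.relIndex K = O'.index := rfl
        rw [this, ← hO'card]
        exact hcop) hOQ1 hOQ2 h1 h2
    refine ⟨a, ha, mem_normalizer_of_conj_smul_eq ?_⟩
    rw [← conj_smul_conj_smul, ← hconj, conj_smul_conj_smul, inv_mul_cancel, conj_one_smul]
  let N : Subgroup G := normalizer (Q : Set G)
  have hON : O ⊔ N = ⊤ := by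
    rw [eq_top_iff]
    rintro g -
    obtain ⟨a, ha, h1⟩ := hfrat g
    have h2 : g = a * (a⁻¹ * g) := by group
    rw [h2]
    exact Subgroup.mul_mem_sup ha h1
  obtain ⟨P⟩ : Nonempty (Sylow p N) := inferInstance
  let R : Subgroup G := (P : Subgroup N).map N.subtype
  have hRN : R ≤ N := Subgroup.map_subtype_le _
  have hRp : IsPGroup p R := P.isPGroup'.map N.subtype
  refine ⟨Q, R, hRN, by rw [hQcard]; exact hKbc, hRp, ?_, ?_⟩
  · -- the centralizer
    rintro x ⟨hxR, hxC⟩
    have hcen : centralizer (Kb : Set (G ⧸ O)) ≤ Kb :=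
      Cfsg.Agent.Lib.PGroup.AxLemma.centralizer_pPrimeCore_le (hsolv.quotient O) pCore_quotient_pCore_eq_bot
    have h1 : π x ∈ centralizer (Kb : Set (G ⧸ O)) := by
      rw [Subgroup.mem_centralizer_iff]
      intro kb hkb
      obtain ⟨k, rfl⟩ := QuotientGroup.mk'_surjective O kb
      have hk : k ∈ K := hkb
      rw [← hOQ2] at hk
      obtain ⟨o, ho, q, hq, rfl⟩ := exists_mul_of_mem_sup_normal_left hk
      have h2 : (QuotientGroup.mk' O) o = 1 := (QuotientGroup.eq_one_iff o).mpr ho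
      rw [map_mul, h2, one_mul]
      have h3 := Subgroup.mem_centralizer_iff.mp hxC q hq
      show (QuotientGroup.mk' O) q * (QuotientGroup.mk' O) x = (QuotientGroup.mk' O) x * (QuotientGroup.mk' O) q
      rw [← map_mul, ← map_mul, h3]
    have h2 : π x ∈ Kb := hcen h1
    -- `π x` has `p`-power order and lies in a `p'`-group
    obtain ⟨k, hk⟩ := (IsPGroup.iff_orderOf.mp hRp) ⟨x, hxR⟩
    have hxk : x ^ p ^ k = 1 := by
      have h3 := pow_orderOf_eq_one (⟨x, hxR⟩ : R)
      rw [hk] at h3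
      exact congrArg Subtype.val h3
    have h4 : (π x) ^ p ^ k = 1 := by rw [← map_pow, hxk, map_one]
    have h5 : orderOf (π x) ∣ p ^ k := orderOf_dvd_of_pow_eq_one h4
    have h6 : orderOf (π x) ∣ Nat.card Kb := Subgroup.orderOf_dvd_natCard Kb h2
    have h7 : (p ^ k).Coprime (Nat.card Kb) := Nat.Coprime.pow_left k hKbc.symm
    have h8 : orderOf (π x) = 1 := Nat.Coprime.eq_one_of_dvd (Nat.Coprime.coprime_dvd_left h5 h7) h6
    have h9 : π x = 1 := orderOf_eq_one_iff.mp h8
    exact (QuotientGroup.eq_one_iff x).mp h9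
  · -- the index
    have h1 : O.index = O.relIndex N := by
      have h2 : O.relIndex (O ⊔ N) = O.relIndex N := Subgroup.relIndex_sup_left N O
      rw [hON, Subgroup.relIndex_top_right] at h2
      exact h2
    have h2 := Cfsg.Agent.Lib.PSolv.card_inf_mul_relIndex O N
    rw [← h1] at h2
    have h3 := Cfsg.Agent.Lib.PSolv.card_inf_mul_relIndex O R
    have hRcard : Nat.card R = p ^ (Nat.card N).factorization p := by
      have h4 : Nat.card R = Nat.card P :=
        Nat.card_congr (Subgroup.equivMapOfInjective (P : Subgroup N) N.subtype N.subtype_injective).toEquiv.symm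
      rw [h4]
      exact P.card_eq_multiplicity
    obtain ⟨c₀, hc₀⟩ := IsPGroup.iff_card.mp (hOp.to_le (inf_le_left : O ⊓ N ≤ O))
    have hIdx0 : O.index ≠ 0 := Subgroup.index_ne_zero_of_finite
    have hfac : (Nat.card N).factorization p = c₀ + O.index.factorization p := by
      rw [← h2, hc₀, Nat.factorization_mul (pow_ne_zero _ hpF.out.ne_zero) hIdx0, Finsupp.add_apply,
        Nat.Prime.factorization_pow hpF.out, Finsupp.single_eq_same]
    have hdvd : Nat.card (O ⊓ R : Subgroup G) ∣ p ^ c₀ := by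
      rw [← hc₀]
      exact Subgroup.card_dvd_of_le (inf_le_inf_left O hRN)
    obtain ⟨w, hw⟩ := hdvd
    rw [hRcard, hfac, pow_add, hw] at h3
    have hpos : 0 < Nat.card (O ⊓ R : Subgroup G) := Nat.card_pos
    have h4 : O.relIndex R = w * p ^ O.index.factorization p := by
      apply Nat.eq_of_mul_eq_mul_left hpos
      rw [h3, mul_assoc]
    rw [h4]
    exact Dvd.intro_left w rfl

end Grp

section Main

variable {G : Type u} [Group G] [Finite G]

open Subgroup

/-- The bound. -/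
theorem main_bound (χ : G → ℂ) (hχ : IsCharacter G χ) (hfaith : ∀ g : G, χ g = χ 1 → g = 1) (n : ℕ)
    (hn : charDegree χ = n) (p : ℕ) (hp : p.Prime) (hsolv : IsPSolvable p G) :
    ((pCore p G).index).factorization p ≤ Cfsg.Agent.Lib.CharExtra.minkF p n := by
  classical
  haveI hpF : Fact p.Prime := ⟨hp⟩
  obtain ⟨Q, R, hRN, hQp, hRp, hCR, hdiv⟩ :=
    exists_pair (p := p) (Cfsg.Agent.Lib.PSolv.pStep_of_isPSolvable hp hsolv)
  let H : Subgroup G := Q ⊔ R
  have hQH : Q ≤ H := le_sup_left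
  have hRH : R ≤ H := le_sup_right
  have hHN : H ≤ normalizer (Q : Set G) := sup_le Subgroup.le_normalizer hRN
  haveI : Fintype H := Fintype.ofFinite H
  let Q₁ : Subgroup H := Q.subgroupOf H
  let R₁ : Subgroup H := R.subgroupOf H
  haveI hQ₁n : Q₁.Normal := (Subgroup.normal_subgroupOf_iff_le_normalizer hQH).mpr hHN
  have htop₁ : Q₁ ⊔ R₁ = ⊤ := by
    apply Subgroup.map_injective H.subtype_injective
    rw [Subgroup.map_sup, Subgroup.map_subgroupOf_eq_of_le hQH, Subgroup.map_subgroupOf_eq_of_le hRH,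
      ← MonoidHom.range_eq_map, Subgroup.range_subtype]
  have hR₁card : Nat.card R₁ = Nat.card R := Nat.card_congr (Subgroup.subgroupOfEquivOfLe hRH).toEquiv
  have hR₁p : IsPGroup p R₁ := hRp.of_equiv (Subgroup.subgroupOfEquivOfLe hRH).symm
  have hQ₁p : (Nat.card Q₁).Coprime p := by
    have : Nat.card Q₁ = Nat.card Q := Nat.card_congr (Subgroup.subgroupOfEquivOfLe hQH).toEquiv
    rwa [this]
  have hχ₁ : IsCharacter H (fun x : H => χ x) := IsCharacter.restrict H hχ
  have hdeg₁ : charDegree (fun x : H => χ x) = n := by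
    rw [← hn]
    rfl
  obtain ⟨ξ, hξ, hdξ, hrat, hker⟩ := rat_all Q₁ R₁ hR₁p hQ₁p htop₁ n _ hχ₁ hdeg₁
  obtain ⟨v, hv⟩ := IsPGroup.index hR₁p (kerOf ξ)
  have hbound := Cfsg.Agent.Lib.CharExtra.rat_bound hR₁p (charDegree ξ) ξ hξ rfl hrat v hv
  have hmono : Cfsg.Agent.Lib.CharExtra.minkF p (charDegree ξ) ≤ Cfsg.Agent.Lib.CharExtra.minkF p n := by
    have h1 := Cfsg.Agent.Lib.CharExtra.minkF_add hp (charDegree ξ) (n - charDegree ξ)
    rw [Nat.add_sub_cancel' hdξ] at h1
    omega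
  refine le_trans ?_ (hbound.trans hmono)
  -- the kernel is inside `O_p(G)`
  let O := pCore p G
  have hkerO : ∀ y : R₁, y ∈ kerOf ξ → ((y : H) : G) ∈ O ⊓ R := by
    intro y hy
    have hyR : ((y : H) : G) ∈ R := y.2
    refine ⟨?_, hyR⟩
    refine hCR ⟨hyR, Subgroup.mem_centralizer_iff.mpr ?_⟩
    intro q hq
    have h1 := hker y ((mem_kerOf_iff hξ).mp hy) ⟨q, hQH hq⟩ hq
    have h2 : χ (((y : H) : G) * q * ((y : H) : G)⁻¹ * q⁻¹) = χ 1 := h1
    have h3 := hfaith _ h2
    have h4 : ((y : H) : G) * q = q * ((y : H) : G) := by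
      have h5 : ((y : H) : G) * q * ((y : H) : G)⁻¹ = q := by
        rw [mul_inv_eq_one] at h3
        exact h3
      rw [mul_inv_eq_iff_eq_mul] at h5
      exact h5
    exact h4.symm
  let inj : kerOf ξ →* (O ⊓ R : Subgroup G) :=
    { toFun := fun y => ⟨(((y : R₁) : H) : G), hkerO _ y.2⟩
      map_one' := rfl
      map_mul' := fun _ _ => rfl }
  have hinj : Function.Injective inj := by
    intro a b hab
    have h1 : ((inj a : (O ⊓ R : Subgroup G)) : G) = ((inj b : (O ⊓ R : Subgroup G)) : G) :=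
      congrArg Subtype.val hab
    exact Subtype.ext (Subtype.ext (Subtype.ext h1))
  have hdvd : Nat.card (kerOf ξ) ∣ Nat.card (O ⊓ R : Subgroup G) := Subgroup.card_dvd_of_injective inj hinj
  obtain ⟨w, hw⟩ := hdvd
  have h1 := Cfsg.Agent.Lib.PSolv.card_inf_mul_relIndex O R
  have h2 := (kerOf ξ).card_mul_index
  rw [hv, hR₁card, ← h1, hw] at h2
  have hpos : 0 < Nat.card (kerOf ξ) := Nat.card_pos
  have h3 : p ^ v = w * O.relIndex R := by
    apply Nat.eq_of_mul_eq_mul_left hpos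
    rw [h2, mul_assoc]
  have h4 : p ^ O.index.factorization p ∣ p ^ v := by
    rw [h3]
    exact Dvd.dvd.mul_left hdiv w
  exact (Nat.pow_dvd_pow_iff_le_right hp.one_lt).mp h4

end Main

end Cfsg.Agent.Lib.RatExt
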